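-- Team project OPAR (S5989), package [PLUSQ] (helper84): the form `Σ xᵢ yᵢ` is a nondegenerate
-- quadratic form of plus type.
import Mathlib
import Cfsg.Agent.Lib.Helper12.OHyp.EBlkOdd
import Cfsg.Agent.Lib.Helper70.OPar.Defs

set_option autoImplicit false
open scoped MatrixGroups
open Matrix

namespace Cfsg.Agent.Lib.Helper84.OPar

open Cfsg.Agent.Lib.Helper23.OHyp

universe u

/-- The embedding of the first half. -/
noncomputable def inlMap (F : Type u) [Field F] (d : ℕ) :
    (Fin d → F) →ₗ[F] (Fin d ⊕ Fin d → F) where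
  toFun f := Sum.elim f 0
  map_add' f g := by
    funext z
    rcases z with k | k <;> simp
  map_smul' c f := by
    funext z
    rcases z with k | k <;> simp

theorem inlMap_injective (F : Type u) [Field F] (d : ℕ) : Function.Injective (inlMap F d) := by
  intro f g h
  funext k
  have := congrFun h (Sum.inl k)
  simpa [inlMap] using this

theorem pkgPlusQ : Cfsg.Agent.Lib.Helper70.OPar.PkgPlusQ.{u} := by
  intro F _ h2 d
  refine ⟨Cfsg.Agent.Lib.Helper12.OHyp.nondeg_quadFormPlus d, ?_⟩
  refine ⟨LinearMap.range (inlMap F d), le_top, ?_, ?_⟩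
  · intro w hw
    obtain ⟨f, rfl⟩ := hw
    simp [Cfsg.quadFormPlus, inlMap]
  · rw [LinearMap.finrank_range_of_inj (inlMap_injective F d)]
    simp
    omega

end Cfsg.Agent.Lib.Helper84.OPar
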