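-- Team project OPAR (S5989), package [POS] (helper84): for `r` odd, prime to `q`, the numerical
-- conditions force every non-scalar element with scalar `r`-th power to fix a member.
import Mathlib
import Cfsg.Agent.Lib.Helper23.OHyp.Asm
import Cfsg.Agent.Lib.Helper70.OPar.Defs

set_option autoImplicit false
open scoped MatrixGroups
open Matrix

namespace Cfsg.Agent.Lib.Helper84.OPar

open Cfsg.Agent.Lib.Helper23.OHyp Cfsg.Agent.Lib.Helper70.OPar

universe u

theorem natCast_ne_zero_of_not_dvd_card {F : Type u} [Field F] [Fintype F] {r : ℕ}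
    (hr : r.Prime) (hrq : ¬ r ∣ Fintype.card F) : (r : F) ≠ 0 := by
  intro h
  obtain ⟨p, hp⟩ := CharP.exists F
  haveI := hp
  obtain ⟨k, hpp, hk⟩ := FiniteField.card F p
  rw [CharP.cast_eq_zero_iff F p] at h
  have hpr : p = r := (Nat.prime_dvd_prime_iff_eq hpp hr).mp h
  apply hrq
  rw [hk, ← hpr]
  exact dvd_pow_self p k.ne_zero

theorem pkgPos_of (hS : PkgScal.{u}) (hSp : PkgSplit.{u}) (hD : PkgDiv.{u}) (hSub : PkgSub.{u})
    (hSum : PkgSum.{u}) (hG : PkgGeomIso.{u}) : PkgPos.{u} := by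
  intro F _ _ ι _ _ Q hQ h2 r hr hr2 hrq W₀ m hmodd hmn hW₀dim hW₀nd hcond x hxΩ hsc hnsc
  classical
  obtain ⟨z, hz⟩ := hsc
  have hxiso := mem_iso_of_mem_omega hxΩ
  have hisom := isom_of_mem hxiso
  have : Nonempty ι := Fintype.card_pos_iff.mp (by omega)
  have hxr_iso : ∀ v, Q ((z • (1 : Matrix ι ι F)) *ᵥ v) = Q v := by
    intro v
    rw [← hz]
    exact isom_of_mem (Subgroup.pow_mem _ hxiso r) v
  have hzz : z * z = 1 := hS F ι Q hQ z hxr_iso
  have hrodd : Odd r := hr.odd_of_ne_two hr2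
  have hzr : z ^ (r + 1) = 1 := by
    obtain ⟨t, ht⟩ := hrodd
    have h1 : r + 1 = 2 * (t + 1) := by omega
    rw [h1, pow_mul, pow_two, hzz, one_pow]
  rw [Units.val_pow_eq_pow_val] at hz
  have hxy : (x : Matrix ι ι F) = z • (z • (x : Matrix ι ι F)) := by
    rw [smul_smul, hzz, one_smul]
  have hypow : (z • (x : Matrix ι ι F)) ^ r = 1 := by
    rw [smul_pow, hz, smul_smul, ← pow_succ, hzr, one_smul]
  have hyisom : ∀ v, Q ((z • (x : Matrix ι ι F)) *ᵥ v) = Q v := by
    intro v
    rw [Matrix.smul_mulVec, hQ.smul, hisom, pow_two, hzz, one_mul]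
  have hStd : Std Q r (z • (x : Matrix ι ι F)) :=
    ⟨hQ, h2, hr, hr2, hrq, natCast_ne_zero_of_not_dvd_card hr hrq, hypow, hyisom⟩
  have hy1 : z • (x : Matrix ι ι F) ≠ 1 := by
    intro h
    apply hnsc z
    rw [hxy, h]
  have hipos : 0 < ordI (Fintype.card F) r := ordI_pos hr hrq
  have hcpos : 0 < cc (Fintype.card F) r := cc_pos hipos
  obtain ⟨c', hc'⟩ := cc_even (Fintype.card F) r
  obtain ⟨hNdC, hNdN, hPerp, hCompl, hInvN, -⟩ := hSp F ι Q r _ hStd
  obtain ⟨⟨j, hj⟩, hplusN⟩ := hD F ι Q r _ hStd (movSp (z • (x : Matrix ι ι F))) le_rfl hInvN hNdN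
  have hdim : Module.finrank F (fixSp (z • (x : Matrix ι ι F))) +
      Module.finrank F (movSp (z • (x : Matrix ι ι F))) = Fintype.card ι := by
    rw [Submodule.finrank_add_eq_of_isCompl hCompl, Module.finrank_fintype_fun_eq_card]
  have hNbot : movSp (z • (x : Matrix ι ι F)) ≠ ⊥ := by
    intro h
    apply hy1
    unfold movSp at h
    rw [LinearMap.range_eq_bot, sub_eq_zero] at h
    apply Matrix.toLin'.injective
    rw [h, Matrix.toLin'_one]
    rfl
  have hNpos : 1 ≤ Module.finrank F (movSp (z • (x : Matrix ι ι F))) := by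
    rw [Nat.succ_le_iff, Module.finrank_pos_iff]
    exact (Submodule.nontrivial_iff_ne_bot).mpr hNbot
  have hj1 : 1 ≤ j := by
    rcases Nat.eq_zero_or_pos j with h0 | h0
    · rw [h0, mul_zero] at hj
      omega
    · exact h0
  have hj'le : cc (Fintype.card F) r * min j (m / cc (Fintype.card F) r) ≤
      Module.finrank F (movSp (z • (x : Matrix ι ι F))) := by
    rw [hj]; exact Nat.mul_le_mul_left _ (min_le_left _ _)
  obtain ⟨W₁, hW₁le, hW₁inv, hW₁nd, hW₁dim⟩ :=
    hSub F ι Q r _ hStd (movSp (z • (x : Matrix ι ι F))) le_rfl hInvN hNdN _ hj'le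
  have he_le : cc (Fintype.card F) r * min j (m / cc (Fintype.card F) r) ≤ m :=
    (Nat.mul_le_mul_left _ (min_le_right _ _)).trans (Nat.mul_div_le m _)
  have hW₁even : Even (cc (Fintype.card F) r * min j (m / cc (Fintype.card F) r)) := by
    rw [hc', mul_assoc]; exact even_two_mul _
  have hodd : Odd (m - cc (Fintype.card F) r * min j (m / cc (Fintype.card F) r)) :=
    (Nat.odd_sub he_le).mpr ⟨fun _ => hW₁even, fun _ => hmodd⟩
  have ht1 : 1 ≤ m - cc (Fintype.card F) r * min j (m / cc (Fintype.card F) r) := by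
    obtain ⟨t, ht⟩ := hodd; omega
  have hmod := Nat.div_add_mod m (cc (Fintype.card F) r)
  have hmodn := Nat.div_add_mod (Fintype.card ι) (cc (Fintype.card F) r)
  have hjn : j ≤ Fintype.card ι / cc (Fintype.card F) r := by
    rw [Nat.le_div_iff_mul_le hcpos, mul_comm]
    omega
  have h3 : cc (Fintype.card F) r * j ≤
      cc (Fintype.card F) r * (Fintype.card ι / cc (Fintype.card F) r) :=
    Nat.mul_le_mul_left _ hjn
  have hmodlt : m % cc (Fintype.card F) r < cc (Fintype.card F) r := Nat.mod_lt _ hcpos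
  have hCbig : m % cc (Fintype.card F) r + 1 ≤
      Module.finrank F (fixSp (z • (x : Matrix ι ι F))) := by
    rcases hcond with h4 | ⟨hk0, htype⟩
    · omega
    · have hC1 : 1 ≤ Module.finrank F (fixSp (z • (x : Matrix ι ι F))) := by
        by_contra hC0
        have hNn : Module.finrank F (movSp (z • (x : Matrix ι ι F))) = Fintype.card ι := by omega
        have hNtop : movSp (z • (x : Matrix ι ι F)) = ⊤ := by
          apply Submodule.eq_top_of_finrank_eq
          rw [hNn, Module.finrank_fintype_fun_eq_card]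
        rw [hNn] at hplusN
        rw [hNtop] at hplusN
        exact htype hplusN
      have hjlt : j < Fintype.card ι / cc (Fintype.card F) r := by
        rcases Nat.lt_or_ge j (Fintype.card ι / cc (Fintype.card F) r) with h | h
        · exact h
        · exfalso
          have h5 : cc (Fintype.card F) r * (Fintype.card ι / cc (Fintype.card F) r) ≤
              cc (Fintype.card F) r * j := Nat.mul_le_mul_left _ h
          omega
      have h6 : cc (Fintype.card F) r * (j + 1) ≤
          cc (Fintype.card F) r * (Fintype.card ι / cc (Fintype.card F) r) :=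
        Nat.mul_le_mul_left _ hjlt
      rw [mul_add, mul_one] at h6
      omega
  have he1 : m - cc (Fintype.card F) r * min j (m / cc (Fintype.card F) r) + 1 ≤
      Module.finrank F (fixSp (z • (x : Matrix ι ι F))) := by
    rcases le_total j (m / cc (Fintype.card F) r) with hjm | hjm
    · rw [min_eq_left hjm]
      rw [min_eq_left hjm] at he_le
      omega
    · rw [min_eq_right hjm]
      omega
  have hperp : Perp Q (fixSp (z • (x : Matrix ι ι F))) W₁ :=
    fun u hu v hv => hPerp u hu v (hW₁le hv)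
  obtain ⟨W₂, hW₂le, hW₂nd, hW₂dim, hiso⟩ :=
    hG F ι Q hQ h2 (fixSp (z • (x : Matrix ι ι F))) W₁ W₀ hNdC hW₁nd hperp hW₀nd
      (m - cc (Fintype.card F) r * min j (m / cc (Fintype.card F) r)) ht1 he1
      (by rw [hW₀dim, hW₁dim]; omega)
  have hperp2 : Perp Q W₂ W₁ := fun u hu v hv => hPerp u (hW₂le hu) v (hW₁le hv)
  obtain ⟨hnd, hdimsum, -⟩ := hSum F ι Q hQ h2 W₂ W₁ hW₂nd hW₁nd hperp2
  have hinv : Inv (z • (x : Matrix ι ι F)) (W₂ ⊔ W₁) := inv_sup hW₂le hW₁inv
  refine ⟨W₂ ⊔ W₁, ⟨?_, hnd, hiso⟩, ?_⟩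
  · rw [hdimsum, hW₂dim, hW₁dim]; omega
  · rintro _ ⟨w, hw, rfl⟩
    have h7 : Matrix.toLin' (x : Matrix ι ι F) w =
        z • Matrix.toLin' (z • (x : Matrix ι ι F)) w := by
      conv_lhs => rw [hxy]
      rw [Matrix.toLin'_apply, Matrix.toLin'_apply, Matrix.smul_mulVec]
    rw [h7]
    exact Submodule.smul_mem _ z (hinv ⟨w, hw, rfl⟩)

end Cfsg.Agent.Lib.Helper84.OPar
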